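import Cfsg.Agent.CosetEnum.Step
import Cfsg.Agent.CosetEnum.Front2
import Cfsg.Agent.CosetEnum.MO8.AP0
import Cfsg.Agent.CosetEnum.MO8.BP0
import Cfsg.Agent.CosetEnum.MO8.BP1
import Cfsg.Agent.CosetEnum.MO8.CP0
import Cfsg.Agent.CosetEnum.MO8.DP0
import Cfsg.Agent.CosetEnum.Level
import Cfsg.Agent.CosetEnum.MO8.T1R0
import Cfsg.Agent.CosetEnum.MO8.T1R1
import Cfsg.Agent.CosetEnum.MO8.T2R0
import Cfsg.Agent.CosetEnum.MO8.T2R1

/-! Certificates of coset enumerations and tables (generated, owner: helper28). -/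

set_option autoImplicit false
set_option maxRecDepth 1000000

namespace Cfsg.Agent.CosetEnum.MO8A

theorem st : staticA 6 iv (RL.map expand) subs P L = true := by decide +kernel

theorem seg : Seg P L P.m 120 :=
  (Seg.nil).snoc part0

theorem cert : Cert 6 iv RL subs 120 := fun g H hl hrels hsubs =>
  upperA g H 6 iv hl (RL.map expand) subs hrels hsubs P L rfl st seg

end Cfsg.Agent.CosetEnum.MO8A
namespace Cfsg.Agent.CosetEnum.MO8B

theorem st : staticA 10 iv (RL.map expand) subs P L = true := by decide +kernel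

theorem seg : Seg P L P.m 336 :=
  ((Seg.nil).snoc part0).snoc part1

theorem cert : Cert 10 iv RL subs 336 := fun g H hl hrels hsubs =>
  upperA g H 10 iv hl (RL.map expand) subs hrels hsubs P L rfl st seg

end Cfsg.Agent.CosetEnum.MO8B
namespace Cfsg.Agent.CosetEnum.MO8C

theorem st : staticA 12 iv (RL.map expand) subs P L = true := by decide +kernel

theorem seg : Seg P L P.m 72 :=
  (Seg.nil).snoc part0

theorem cert : Cert 12 iv RL subs 72 := fun g H hl hrels hsubs =>
  upperA g H 12 iv hl (RL.map expand) subs hrels hsubs P L rfl st seg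

end Cfsg.Agent.CosetEnum.MO8C
namespace Cfsg.Agent.CosetEnum.MO8D

theorem st : staticA 14 iv (RL.map expand) subs P L = true := by decide +kernel

theorem seg : Seg P L P.m 240 :=
  (Seg.nil).snoc part0

theorem cert : Cert 14 iv RL subs 240 := fun g H hl hrels hsubs =>
  upperA g H 14 iv hl (RL.map expand) subs hrels hsubs P L rfl st seg

end Cfsg.Agent.CosetEnum.MO8D
namespace Cfsg.Agent.CosetEnum.MO8T1

theorem st : letsB 14 iv lets RL = true := by decide +kernel

theorem tabOK : TabOK P 14 iv lets RL := ⟨st, (Cov.of r0 rfl).trans (Cov.of r1 rfl)⟩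

theorem covO : Cov (orbC P lets [] 0 P.m) 0 P.m := (Cov.of o0 rfl).trans (Cov.of o1 rfl)

end Cfsg.Agent.CosetEnum.MO8T1
namespace Cfsg.Agent.CosetEnum.MO8T2

theorem st : letsB 14 iv lets RL = true := by decide +kernel

theorem tabOK : TabOK P 14 iv lets RL := ⟨st, (Cov.of r0 rfl).trans (Cov.of r1 rfl)⟩

theorem covO : Cov (orbC P lets [] 0 P.m) 0 P.m := (Cov.of o0 rfl).trans (Cov.of o1 rfl)

end Cfsg.Agent.CosetEnum.MO8T2
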